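import Mathlib

/-!
# Biadditive maps invariant under a torus
-/

set_option autoImplicit false

namespace Cfsg.Agent.H64

/-- A biadditive pairing on a field invariant under `(a, b) ↦ (c a, e(c) b)` is trivial, if
`c ↦ (e c)⁻¹` is not affine-additive at some point. -/
theorem biadd_invariant_eq_one {K : Type*} [Field K] {A : Type*} [Group A] (β : K → K → A) (e : K → K)
    (hl : ∀ a a' b, β (a + a') b = β a b * β a' b) (hr : ∀ a b b', β a (b + b') = β a b * β a b')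
    (hinv : ∀ c, c ≠ 0 → ∀ a b, β (c * a) (e c * b) = β a b) (he : ∀ c, c ≠ 0 → e c ≠ 0)
    {c : K} (hc : c ≠ 0) (hc1 : 1 + c ≠ 0) (hD : (e (1 + c))⁻¹ - 1 - (e c)⁻¹ ≠ 0) (a b : K) :
    β a b = 1 := by
  have h0 : ∀ b, β 0 b = 1 := fun b => mul_eq_left.mp (by rw [← hl, add_zero] : β 0 b * β 0 b = β 0 b)
  have hr0 : β 1 0 = 1 := mul_eq_left.mp (by rw [← hr, add_zero] : β 1 0 * β 1 0 = β 1 0)
  have hkey : ∀ a b, a ≠ 0 → β a b = β 1 ((e a)⁻¹ * b) := by
    intro a b ha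
    have h := hinv a ha 1 ((e a)⁻¹ * b)
    rwa [mul_one, ← mul_assoc, mul_inv_cancel₀ (he a ha), one_mul] at h
  have hh : ∀ x, β 1 x = 1 := by
    intro x
    set D := (e (1 + c))⁻¹ - 1 - (e c)⁻¹
    have h := hl 1 c (D⁻¹ * x)
    rw [hkey _ _ hc1, hkey _ _ hc, ← hr] at h
    have h2 : (e (1 + c))⁻¹ * (D⁻¹ * x) = x + (D⁻¹ * x + (e c)⁻¹ * (D⁻¹ * x)) := by
      have : x = D * (D⁻¹ * x) := by rw [← mul_assoc, mul_inv_cancel₀ hD, one_mul]
      linear_combination (-1 : K) * this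
    rw [h2, hr] at h
    exact mul_eq_right.mp h
  by_cases ha : a = 0
  · rw [ha]; exact h0 b
  · rw [hkey a b ha]; exact hh _

end Cfsg.Agent.H64
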