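import Cfsg.Agent.H7.SzPartition
import Cfsg.Agent.H64.StemBasic
import Cfsg.Agent.H64.SzMult.Weight

/-!
# The 2-part of the multiplier of a Suzuki group
-/

set_option autoImplicit false

namespace Cfsg.Agent.H64.SzMult

open Cfsg.Agent.H7
open scoped commutatorElement
open Polynomial

variable {F : Type*} [Field F] {m : ℕ} {Γ : Type*} [Group Γ]

/-- Some `c` separates the twisted norm from an additive map. -/
theorem exists_norm_witness (H : SzHyp F m) (hm : 2 ≤ m) :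
    ∃ c : F, c ≠ 0 ∧ 1 + c ≠ 0 ∧ ((1 + c) * th m (1 + c))⁻¹ - 1 - (c * th m c)⁻¹ ≠ 0 := by
  haveI := H.fin
  letI := Fintype.ofFinite F
  set e := 2 ^ (m + 1) with he
  let R : F[X] := X * X ^ e + X * X ^ e * ((1 + X) * (1 + X ^ e)) + (1 + X) * (1 + X ^ e)
  let P : F[X] := X * ((1 + X) * R)
  have hpos : 0 < e := by positivity
  have hR0 : R.eval 0 = 1 := by simp [R, hpos.ne']
  have hP : P ≠ 0 := by
    refine mul_ne_zero X_ne_zero (mul_ne_zero ?_ ?_)
    · intro h; simpa using congrArg (Polynomial.eval (0 : F)) h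
    · intro h; rw [h] at hR0; simp at hR0
  have hd : P.natDegree ≤ 4 + 2 * e := by
    simp only [P, R]
    refine le_trans natDegree_mul_le ?_
    have h1 : (X : F[X]).natDegree ≤ 1 := natDegree_X_le
    have h2 : (1 + X : F[X]).natDegree ≤ 1 := by compute_degree
    have h3 : (1 + X ^ e : F[X]).natDegree ≤ e :=
      (natDegree_add_le _ _).trans (max_le (by simp) (by simp))
    have h4 : (X * X ^ e : F[X]).natDegree ≤ 1 + e :=
      natDegree_mul_le.trans (add_le_add h1 (by simp))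
    have h5 : ((1 + X) * (1 + X ^ e) : F[X]).natDegree ≤ 1 + e := natDegree_mul_le.trans (add_le_add h2 h3)
    refine le_trans (add_le_add h1 (natDegree_mul_le.trans (add_le_add h2 ?_))) (show 1 + (1 + (2 + 2 * e)) ≤ 4 + 2 * e by omega)
    refine (natDegree_add_le _ _).trans (max_le ((natDegree_add_le _ _).trans (max_le ?_ ?_)) ?_)
    · omega
    · exact natDegree_mul_le.trans ((add_le_add h4 h5).trans (by omega))
    · omega
  obtain ⟨c, hc⟩ : ∃ c : F, P.eval c ≠ 0 := by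
    refine P.exists_eval_ne_zero_of_natDegree_lt_card hP (lt_of_le_of_lt (Nat.cast_le.mpr hd) ?_)
    rw [Cardinal.mk_fintype]
    refine Nat.cast_lt.mpr ?_
    rw [← Nat.card_eq_fintype_card, H.card, he]
    obtain ⟨j, rfl⟩ : ∃ j, m = j + 2 := ⟨m - 2, by omega⟩
    have hA := Nat.one_le_two_pow (n := j)
    rw [show 2 ^ (j + 2 + 1) = 8 * 2 ^ j by ring,
      show 2 ^ (2 * (j + 2) + 1) = 32 * (2 ^ j * 2 ^ j) by ring]
    nlinarith
  simp only [P, R, eval_mul, eval_add, eval_X, eval_one, eval_pow, mul_ne_zero_iff] at hc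
  obtain ⟨hc0, hc1, hR⟩ := hc
  refine ⟨c, hc0, hc1, fun h => hR ?_⟩
  have h1 : th m (1 + c) = 1 + th m c := by rw [H.th_add]; simp [th]
  rw [h1] at h
  have hth : th m c = c ^ e := rfl
  rw [hth] at h
  have hA : c * c ^ e ≠ 0 := mul_ne_zero hc0 (pow_ne_zero _ hc0)
  have hB : (1 + c) * (1 + c ^ e) ≠ 0 := by
    rw [← hth, ← h1]; exact mul_ne_zero hc1 (pow_ne_zero _ hc1)
  have hkey : c * c ^ e * ((1 + c) * (1 + c ^ e)) * (((1 + c) * (1 + c ^ e))⁻¹ - 1 - (c * c ^ e)⁻¹)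
      = c * c ^ e - c * c ^ e * ((1 + c) * (1 + c ^ e)) - (1 + c) * (1 + c ^ e) := by
    rw [mul_sub, mul_sub, mul_one, mul_assoc, mul_inv_cancel₀ hB, mul_one, mul_right_comm _ _ (c * c ^ e)⁻¹,
      mul_inv_cancel₀ hA, one_mul]
  rw [h, mul_zero] at hkey
  linear_combination -hkey + ((1 + c) * (1 + c ^ e) + c * c ^ e * ((1 + c) * (1 + c ^ e))) * H.two_eq

/-- Some `c` is not a primitive cube root of unity. -/
theorem exists_id_witness (H : SzHyp F m) (hm : 2 ≤ m) :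
    ∃ c : F, c ≠ 0 ∧ 1 + c ≠ 0 ∧ (1 + c)⁻¹ - 1 - c⁻¹ ≠ 0 := by
  haveI := H.fin
  letI := Fintype.ofFinite F
  let P : F[X] := X * ((1 + X) * (X ^ 2 + X + 1))
  have hP : P ≠ 0 := by
    refine mul_ne_zero X_ne_zero (mul_ne_zero ?_ ?_) <;>
      intro h <;> simpa using congrArg (Polynomial.eval (0 : F)) h
  obtain ⟨c, hc⟩ : ∃ c : F, P.eval c ≠ 0 := by
    refine P.exists_eval_ne_zero_of_natDegree_lt_card hP
      (lt_of_le_of_lt (Nat.cast_le.mpr (show P.natDegree ≤ 4 by simp only [P]; compute_degree)) ?_)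
    rw [Cardinal.mk_fintype]
    refine Nat.cast_lt.mpr ?_
    rw [← Nat.card_eq_fintype_card, H.card]
    calc 4 < 2 ^ 5 := by norm_num
      _ ≤ _ := Nat.pow_le_pow_right (by norm_num) (by omega)
  simp only [P, eval_mul, eval_add, eval_X, eval_one, eval_pow, mul_ne_zero_iff] at hc
  obtain ⟨hc0, hc1, hR⟩ := hc
  refine ⟨c, hc0, hc1, fun h => hR ?_⟩
  field_simp at h
  linear_combination h + (1 + c + c ^ 2) * H.two_eq

theorem bracket_mul_left {x x' y : Γ} (h : Commute x ⁅x', y⁆) : ⁅x * x', y⁆ = ⁅x', y⁆ * ⁅x, y⁆ := by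
  have h1 : ⁅x * x', y⁆ = x * ⁅x', y⁆ * x⁻¹ * ⁅x, y⁆ := by simp only [commutatorElement_def]; group
  rw [h1, h.eq, mul_inv_cancel_right]

theorem bracket_mul_right {x y y' : Γ} (h : Commute y ⁅x, y'⁆) : ⁅x, y * y'⁆ = ⁅x, y⁆ * ⁅x, y'⁆ := by
  have h1 : ⁅x, y * y'⁆ = ⁅x, y⁆ * (y * ⁅x, y'⁆ * y⁻¹) := by simp only [commutatorElement_def]; group
  rw [h1, h.eq, mul_inv_cancel_right]

/-- The kernel of a central extension of `Sz(q)`, `q ≥ 32`, meets the commutator subgroup of the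
preimage of a Sylow 2-subgroup trivially. -/
theorem inf_commutator_eq_bot (H : SzHyp F m) (hm : 2 ≤ m) {σ : Γ →* Sz F m} (hσ : Function.Surjective σ)
    (hc : σ.ker ≤ Subgroup.center Γ) :
    σ.ker ⊓ ⁅H.Q.comap σ, H.Q.comap σ⁆ = ⊥ := by
  classical
  haveI := H.fin
  letI := Fintype.ofFinite F
  set L := Function.surjInv hσ with hL
  have hσL : ∀ g, σ (L g) = g := Function.surjInv_eq hσ
  have hz : ∀ {z : Γ}, σ z = 1 → ∀ x, Commute z x := fun h x =>
    (Subgroup.mem_center_iff.mp (hc h) x).symm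
  have hcongr : ∀ {x x' y y' : Γ}, σ x = σ x' → σ y = σ y' → ⁅x, y⁆ = ⁅x', y'⁆ := by
    intro x x' y y' hx hy
    obtain ⟨z, rfl⟩ : ∃ z, x = x' * z := ⟨x'⁻¹ * x, by group⟩
    obtain ⟨w, rfl⟩ : ∃ w, y = y' * w := ⟨y'⁻¹ * y, by group⟩
    have hz1 : σ z = 1 := by rwa [map_mul, mul_eq_left] at hx
    have hw1 : σ w = 1 := by rwa [map_mul, mul_eq_left] at hy
    rw [bracket_mul_left ((hz (by rw [map_commutatorElement, hz1, commutatorElement_one_left]) x').symm),
      show ⁅z, y' * w⁆ = 1 from commutatorElement_eq_one_iff_commute.mpr (hz hz1 _), one_mul,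
      bracket_mul_right ((hz (by rw [map_commutatorElement, hw1, commutatorElement_one_right]) y').symm),
      show ⁅x', w⁆ = 1 from commutatorElement_eq_one_iff_commute.mpr (hz hw1 _).symm, mul_one]
  -- lifts
  set A : F → Γ := fun a => L (H.us a 0) with hA
  set Z : F → Γ := fun b => L (H.us 0 b) with hZ
  have hdec : ∀ x ∈ H.Q.comap σ, ∃ a b, σ x = σ (A a * Z b) := by
    intro x hx
    obtain ⟨a, b, h⟩ := hx
    refine ⟨a, b, ?_⟩
    rw [h, map_mul, hσL, hσL, H.us_mul]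
    simp
  have hA_add : ∀ a a', ∃ w, σ (A a * A a') = σ (A (a + a') * Z w) := fun a a' => ⟨th m a * a', by
    simp only [map_mul, hA, hZ, hσL, H.us_mul]; simp [th]⟩
  have hZ_add : ∀ b b', σ (Z (b + b')) = σ (Z b * Z b') := fun b b' => by
    simp only [map_mul, hZ, hσL, H.us_mul]; simp [th]
  have hconjA : ∀ (k : Fˣ) (a : F), σ (L (H.ds k) * A a * (L (H.ds k))⁻¹) = σ (A ((k : F) * a)) := fun k a => by
    simp only [map_mul, map_inv, hA, hσL, H.ds_us_conj]; simp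
  have hconjZ : ∀ (k : Fˣ) (b : F), σ (L (H.ds k) * Z b * (L (H.ds k))⁻¹) =
      σ (Z ((k : F) * th m (k : F) * b)) := fun k b => by
    simp only [map_mul, map_inv, hZ, hσL, H.ds_us_conj]; simp
  have hconj : ∀ (d x y : Γ), d * ⁅x, y⁆ * d⁻¹ = ⁅d * x * d⁻¹, d * y * d⁻¹⁆ := fun d x y => by
    simp only [commutatorElement_def]; group
  -- the centre of `Q` is central in the preimage
  have hAZσ : ∀ a b, σ ⁅A a, Z b⁆ = 1 := fun a b => by
    rw [map_commutatorElement, commutatorElement_eq_one_iff_commute]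
    simp only [hA, hZ, hσL]
    exact (H.commute_us a 0 0 b).mpr (by simp [th])
  have hZZσ : ∀ b b', σ ⁅Z b, Z b'⁆ = 1 := fun b b' => by
    rw [map_commutatorElement, commutatorElement_eq_one_iff_commute]
    simp only [hZ, hσL]
    exact (H.commute_us 0 b 0 b').mpr (by simp [th])
  obtain ⟨c, hc0, hc1, hcD⟩ := exists_id_witness H hm
  obtain ⟨d, hd0, hd1, hdD⟩ := exists_norm_witness H hm
  have hN : ∀ k : F, k ≠ 0 → ∃ l : Fˣ, (l : F) * th m (l : F) = k := fun k hk =>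
    H.normBij_surjective (Units.mk0 k hk)
  have hZZ : ∀ b b', ⁅Z b, Z b'⁆ = 1 := by
    refine biadd_invariant_eq_one (fun b b' => ⁅Z b, Z b'⁆) id ?_ ?_ ?_ (fun x hx => hx) hc0 hc1 hcD
    · intro b b' e
      show ⁅Z (b + b'), Z e⁆ = _
      rw [hcongr (hZ_add b b') rfl, bracket_mul_left (hz (hZZσ _ _) _).symm]
      exact hz (hZZσ _ _) _
    · intro b e e'
      show ⁅Z b, Z (e + e')⁆ = _
      rw [hcongr rfl (hZ_add e e'), bracket_mul_right (hz (hZZσ _ _) _).symm]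
    · intro k hk b b'
      show ⁅Z (k * b), Z (k * b')⁆ = ⁅Z b, Z b'⁆
      obtain ⟨l, hl⟩ := hN k hk
      rw [← hl, ← hcongr (hconjZ l b) (hconjZ l b'), ← hconj, (hz (hZZσ b b') (L (H.ds l))).symm.eq,
        mul_inv_cancel_right]
  have hAA_pre : ∀ a a' w, ⁅A (a + a'), Z w⁆ = ⁅A a, Z w⁆ * ⁅A a', Z w⁆ := by
    intro a a' w
    obtain ⟨v, hv⟩ := hA_add a a'
    have h1 : ⁅A a * A a', Z w⁆ = ⁅A (a + a') * Z v, Z w⁆ := hcongr hv rfl
    rw [bracket_mul_left (hz (hAZσ _ _) _).symm, bracket_mul_left (hz (hZZσ _ _) _).symm, hZZ, one_mul] at h1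
    rw [← h1]
    exact hz (hAZσ _ _) _
  have hAZ : ∀ a b, ⁅A a, Z b⁆ = 1 := by
    refine biadd_invariant_eq_one (fun a b => ⁅A a, Z b⁆) (fun x => x * th m x) hAA_pre ?_ ?_
      (fun x hx => mul_ne_zero hx (pow_ne_zero _ hx)) hd0 hd1 hdD
    · intro a e e'
      show ⁅A a, Z (e + e')⁆ = _
      rw [hcongr rfl (hZ_add e e'), bracket_mul_right (hz (hAZσ _ _) _).symm]
    · intro k hk a b
      obtain ⟨u, rfl⟩ : ∃ u : Fˣ, (u : F) = k := ⟨Units.mk0 k hk, rfl⟩
      show ⁅A ((u : F) * a), Z ((u : F) * th m (u : F) * b)⁆ = ⁅A a, Z b⁆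
      rw [← hcongr (hconjA u a) (hconjZ u b), ← hconj,
        (hz (hAZσ a b) _).symm.eq, mul_inv_cancel_right]
  have hZcomm : ∀ b, ∀ y ∈ H.Q.comap σ, Commute (Z b) y := by
    intro b y hy
    obtain ⟨a, b', h⟩ := hdec y hy
    rw [← commutatorElement_eq_one_iff_commute, hcongr rfl h, bracket_mul_right, hZZ, mul_one,
      ← commutatorElement_inv, hAZ, inv_one]
    rw [hZZ]; exact Commute.one_right _
  -- the abelian group of commutators
  let E : Subgroup Γ := H.Q.comap σ ⊓ Subgroup.centralizer (H.Q.comap σ : Set Γ)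
  letI : CommGroup E :=
    { (inferInstance : Group E) with
      mul_comm := fun x y => Subtype.ext ((Subgroup.mem_centralizer_iff.mp y.2.2) x.1 x.2.1) }
  have hAQ : ∀ a, A a ∈ H.Q.comap σ := fun a => by
    rw [Subgroup.mem_comap, hA, hσL]; exact H.us_mem_Q a 0
  have hC : ∀ a a', ⁅A a, A a'⁆ ∈ E := by
    intro a a'
    have h1 : σ ⁅A a, A a'⁆ = σ (Z (th m a * a' + th m a' * a)) := by
      rw [map_commutatorElement]
      simp only [hA, hZ, hσL, commutatorElement_def]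
      rw [H.us_conj, H.us_inv, H.us_mul, H.us_inj]
      exact ⟨H.add_self _, by linear_combination (a' * th m a') * H.two_eq⟩
    obtain ⟨z, hz1, hzeq⟩ : ∃ z, σ z = 1 ∧ ⁅A a, A a'⁆ = Z (th m a * a' + th m a' * a) * z :=
      ⟨_, by rw [map_mul, map_inv, h1, inv_mul_cancel], (mul_inv_cancel_left _ _).symm⟩
    refine ⟨?_, Subgroup.mem_centralizer_iff.mpr fun y hy => ?_⟩
    · show σ _ ∈ H.Q
      rw [h1, hZ, hσL]; exact H.us_mem_Q _ _
    · rw [hzeq]
      exact ((hZcomm _ y hy).mul_left (hz hz1 y)).symm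
  have hCcomm : ∀ a a', ∀ y ∈ H.Q.comap σ, Commute y ⁅A a, A a'⁆ := fun a a' y hy =>
    Subgroup.mem_centralizer_iff.mp (hC a a').2 y hy
  let C : F → F → E := fun a a' => ⟨⁅A a, A a'⁆, hC a a'⟩
  have hCl : ∀ a a' b, C (a + a') b = C a b * C a' b := by
    intro a a' b
    obtain ⟨v, hv⟩ := hA_add a a'
    have h1 : ⁅A a * A a', A b⁆ = ⁅A (a + a') * Z v, A b⁆ := hcongr hv rfl
    have h2 : ⁅Z v, A b⁆ = 1 := commutatorElement_eq_one_iff_commute.mpr (hZcomm v _ (hAQ b))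
    rw [bracket_mul_left (hCcomm _ _ _ (hAQ a)), bracket_mul_left (by rw [h2]; exact Commute.one_right _), h2,
      one_mul] at h1
    apply Subtype.ext
    show ⁅A (a + a'), A b⁆ = ⁅A a, A b⁆ * ⁅A a', A b⁆
    rw [← h1]
    exact Subgroup.mem_centralizer_iff.mp (hC a b).2 _ (hC a' b).1
  have hCr : ∀ a b b', C a (b + b') = C a b * C a b' := by
    intro a b b'
    obtain ⟨v, hv⟩ := hA_add b b'
    have h1 : ⁅A a, A b * A b'⁆ = ⁅A a, A (b + b') * Z v⁆ := hcongr rfl hv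
    have h2 : ⁅A a, Z v⁆ = 1 := hAZ a v
    rw [bracket_mul_right (hCcomm _ _ _ (hAQ b)), bracket_mul_right (by rw [h2]; exact Commute.one_right _), h2,
      mul_one] at h1
    exact Subtype.ext h1.symm
  -- conjugation by the torus
  have hconjE : ∀ (k : Fˣ), ∀ x ∈ E, L (H.ds k) * x * (L (H.ds k))⁻¹ ∈ E := by
    intro k x hx
    have hnorm : ∀ y, y ∈ H.Q.comap σ → ∀ g : Γ, σ g ∈ H.B → g * y * g⁻¹ ∈ H.Q.comap σ := by
      intro y hy g hg
      rw [Subgroup.mem_comap, map_mul, map_mul, map_inv]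
      exact H.Q_conj_mem hg hy
    have hB : σ (L (H.ds k)) ∈ H.B := by rw [hσL]; exact H.ds_mem_B k
    refine ⟨hnorm x hx.1 _ hB, Subgroup.mem_centralizer_iff.mpr fun y hy => ?_⟩
    have h := Subgroup.mem_centralizer_iff.mp hx.2 _ (hnorm y hy (L (H.ds k))⁻¹ (by rw [map_inv]; exact inv_mem hB))
    have h2 := congrArg (fun t => L (H.ds k) * t * (L (H.ds k))⁻¹) h
    simp only [inv_inv] at h2
    calc y * (L (H.ds k) * x * (L (H.ds k))⁻¹) =
          L (H.ds k) * ((L (H.ds k))⁻¹ * y * L (H.ds k) * x) * (L (H.ds k))⁻¹ := by group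
      _ = L (H.ds k) * (x * ((L (H.ds k))⁻¹ * y * L (H.ds k))) * (L (H.ds k))⁻¹ := h2
      _ = _ := by group
  let cj : Fˣ → (E →* E) := fun k =>
    { toFun := fun x => ⟨L (H.ds k) * x.1 * (L (H.ds k))⁻¹, hconjE k x.1 x.2⟩
      map_one' := Subtype.ext (by simp)
      map_mul' := fun x y => Subtype.ext (by simp [mul_assoc]) }
  let avg : E →* E := ∏ k : Fˣ, cj k
  have hcj : ∀ k a a', cj k (C a a') = C ((k : F) * a) ((k : F) * a') := fun k a a' => Subtype.ext (by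
    show L (H.ds k) * ⁅A a, A a'⁆ * (L (H.ds k))⁻¹ = ⁅A _, A _⁆
    rw [hconj, hcongr (hconjA k a) (hconjA k a')])
  have havgC : ∀ a a', avg (C a a') = 1 := by
    refine biadd_invariant_eq_one (fun a a' => avg (C a a')) id ?_ ?_ ?_ (fun x hx => hx) hc0 hc1 hcD
    · intro a a' b; simp only [hCl, map_mul]
    · intro a b b'; simp only [hCr, map_mul]
    · intro k hk a a'
      show avg (C (k * a) (k * a')) = avg (C a a')
      simp only [avg, MonoidHom.finsetProd_apply, hcj]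
      refine Fintype.prod_equiv (Equiv.mulRight (Units.mk0 k hk)) _ _ fun j => ?_
      simp [mul_assoc]
  -- every commutator is among the generators
  let M : Subgroup E := Subgroup.closure {x | ∃ a a', x = C a a'}
  have hM : ∀ x ∈ M, avg x = 1 ∧ x * x = 1 := by
    intro x hx
    refine Subgroup.closure_induction (p := fun x _ => avg x = 1 ∧ x * x = 1) ?_ (by simp) ?_ ?_ hx
    · rintro _ ⟨a, a', rfl⟩
      refine ⟨havgC a a', ?_⟩
      rw [← hCl, H.add_self]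
      exact mul_eq_left.mp (by rw [← hCl, add_zero] : C 0 a' * C 0 a' = C 0 a')
    · intro x y _ _ h1 h2
      exact ⟨by rw [map_mul, h1.1, h2.1, one_mul], by rw [mul_mul_mul_comm, h1.2, h2.2, one_mul]⟩
    · intro x _ h1
      exact ⟨by rw [map_inv, h1.1, inv_one], by rw [← mul_inv, h1.2, inv_one]⟩
  have hle : ⁅H.Q.comap σ, H.Q.comap σ⁆ ≤ M.map E.subtype := by
    rw [Subgroup.commutator_le]
    intro x hx y hy
    obtain ⟨a, b, h⟩ := hdec x hx
    obtain ⟨a', b', h'⟩ := hdec y hy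
    refine ⟨C a a', Subgroup.subset_closure ⟨a, a', rfl⟩, ?_⟩
    have hb : ⁅Z b, A a' * Z b'⁆ = 1 := commutatorElement_eq_one_iff_commute.mpr
      ((hZcomm b _ (hAQ a')).mul_right (hZcomm b _ (by rw [Subgroup.mem_comap, hZ, hσL]; exact H.us_mem_Q _ _)))
    rw [hcongr h h', bracket_mul_left (by rw [hb]; exact Commute.one_right _), hb, one_mul,
      bracket_mul_right (by rw [hAZ]; exact Commute.one_right _), hAZ, mul_one]
    rfl
  rw [eq_bot_iff]
  rintro z ⟨hz1, hz2⟩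
  obtain ⟨x, hx, rfl⟩ := hle hz2
  obtain ⟨h1, h2⟩ := hM x hx
  have hfix : ∀ k, cj k x = x := fun k => Subtype.ext (by
    show L (H.ds k) * x.1 * (L (H.ds k))⁻¹ = x.1
    rw [(hz (z := x.1) hz1 (L (H.ds k))).symm.eq, mul_inv_cancel_right])
  simp only [avg, MonoidHom.finsetProd_apply, hfix, Finset.prod_const, Finset.card_univ] at h1
  rw [← Nat.card_eq_fintype_card, H.card_units] at h1
  obtain ⟨j, hj⟩ : ∃ j, 2 ^ (2 * m + 1) - 1 = 2 * j + 1 := by
    refine ⟨2 ^ (2 * m) - 1, ?_⟩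
    have := Nat.one_le_two_pow (n := 2 * m)
    rw [pow_succ]; omega
  rw [hj, pow_succ, pow_mul, pow_two, h2, one_pow, one_mul] at h1
  rw [Subgroup.mem_bot, Subgroup.coe_subtype, h1, Subgroup.coe_one]

end Cfsg.Agent.H64.SzMult
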